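/-
A double cover of the smallest dodecad stabiliser by signed permutations, and its multiplier.
-/
import Cfsg.Agent.SchurCert.Cover12Data
import Cfsg.Agent.SchurCert.G12p2
import Cfsg.Agent.SchurCert.G12p3
import Cfsg.Agent.Golay.Simple
import Cfsg.Agent.MathieuOut.Cards

set_option autoImplicit false
set_option maxRecDepth 100000

namespace CfsgLib.SchurCert.Cover12

open Cfsg CfsgLib.Golay CfsgLib.Schur
open CfsgLib.M23Coh (wordT idTab permOf_idTab)
open scoped Pointwise commutatorElement

/-- Projection of a point to the dodecad, as a table. -/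
def prTab : List ℕ :=
  (List.range 24).map fun i => bif dPts.contains i then i else pairTab.getD i 0

/-- The projection. -/
def prf (p : GolayPt) : GolayPt := tabFun prTab p

theorem idx_prf (p : GolayPt) : (idx (prf p)).val = prTab.getD (idx p).val 0 := by
  revert p; decide +kernel

theorem pair_valid : validTab pairTab = true := by decide +kernel

/-- The exchange of all pairs. -/
noncomputable def zPerm : Equiv.Perm GolayPt := permOf pairTab

/-- The position of a code mask among the 729. -/
def codeIdx (m : ℕ) : ℕ :=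
  ((List.range 6).map fun j =>
    (bif m.testBit (dPts.getD j 0) then 1 else bif m.testBit (pairTab.getD (dPts.getD j 0) 0) then 2 else 0)
      * 3 ^ j).sum

/-- Membership in the signed code. -/
def inC (m : ℕ) : Bool := Nat.beq (codeMasks.getD (codeIdx m) 0) m

theorem zero_mem_codeMasks : 0 ∈ codeMasks := by
  rw [← List.contains_iff_mem]; decide +kernel

theorem mem_of_inC {m : ℕ} (h : inC m = true) : m ∈ codeMasks := by
  rw [inC, Nat.beq_eq] at h
  by_cases hi : codeIdx m < codeMasks.length
  · rw [List.getD_eq_getElem _ _ hi] at h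
    exact h ▸ List.getElem_mem _
  · rw [List.getD_eq_default _ _ (not_lt.1 hi)] at h
    exact h ▸ zero_mem_codeMasks

theorem inC_of_mem : codeMasks.all inC = true := by decide +kernel

theorem codeBasis_mem : codeBasis.all (fun m => inC m && Nat.blt m 16777216) = true := by decide +kernel

theorem codeMasks_lt : codeMasks.all (fun m => Nat.blt m 16777216) = true := by decide +kernel

/-- A generator pair fits the pairing, the projection and the code. -/
def genOk (g h : List ℕ) : Bool :=
  validTab g && ok24h h &&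
  ((List.range 24).all fun i =>
    Nat.beq (pairTab.getD (g.getD i 0) 0) (g.getD (pairTab.getD i 0) 0) &&
      Nat.beq (prTab.getD (g.getD i 0) 0) (h.getD (prTab.getD i 0) 0)) &&
  codeMasks.all (fun m => inC (actTab g m))
where
  /-- Test for the stabiliser of the dodecad. -/
  ok24h (h : List ℕ) : Bool := validTab h && presTab h && Nat.beq (actTab h 340831) 340831

theorem gens_ok : (List.range 2).all (fun i => genOk (gu.getD i idTab) (gm.getD i idTab)) = true := by
  decide +kernel

theorem mem_M12_of_tab {h : List ℕ} (hh : genOk.ok24h h = true) :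
    validTab h = true ∧ permOf h ∈ Spor.M12 := by
  simp only [genOk.ok24h, Bool.and_eq_true, Nat.beq_eq] at hh
  obtain ⟨⟨hv, hp⟩, hd⟩ := hh
  refine ⟨hv, Subgroup.mem_inf.2 ⟨permOf_mem_M24 hv hp, MulAction.mem_stabilizer_iff.2 (mask_injective ?_)⟩⟩
  rw [mask_smul hv, show mask Spor.squareDodecad = 340831 from by
    show wmask (qrWord 0) = 340831
    rw [wmask_qrWord]; decide +kernel, hd]

/-- The generating pairs. -/
noncomputable def gens2 (i : ℕ) : Equiv.Perm GolayPt × Equiv.Perm GolayPt :=
  (permOf (gu.getD i idTab), permOf (gm.getD i idTab))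

/-- The group of pairs. -/
noncomputable def cov2 : Subgroup (Equiv.Perm GolayPt × Equiv.Perm GolayPt) :=
  Subgroup.closure {gens2 0, gens2 1}

/-- The compatibility kept by the pairs. -/
def Good (x : Equiv.Perm GolayPt × Equiv.Perm GolayPt) : Prop :=
  x.2 ∈ Spor.M12 ∧ (∀ p, zPerm (x.1 p) = x.1 (zPerm p)) ∧ (∀ p, prf (x.1 p) = x.2 (prf p)) ∧
    ∀ s : Finset GolayPt, mask s ∈ codeMasks → mask (x.1 • s) ∈ codeMasks

theorem good_gen {i : ℕ} (hi : i < 2) : Good (gens2 i) := by
  have h := List.all_eq_true.1 gens_ok i (List.mem_range.2 hi)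
  simp only [genOk, Bool.and_eq_true, List.all_eq_true, List.mem_range, Nat.beq_eq] at h
  obtain ⟨⟨⟨hg, hh⟩, hpts⟩, hcode⟩ := h
  obtain ⟨hv, hm⟩ := mem_M12_of_tab hh
  refine ⟨hm, fun p => idx_injective (Fin.ext ?_), fun p => idx_injective (Fin.ext ?_), fun s hs => ?_⟩
  · show (idx (permOf pairTab (permOf (gu.getD i idTab) p))).val
      = (idx (permOf (gu.getD i idTab) (permOf pairTab p))).val
    rw [idx_permOf pair_valid, idx_permOf hg, idx_permOf hg, idx_permOf pair_valid]
    exact (hpts _ (idx p).isLt).1
  · show (idx (prf (permOf (gu.getD i idTab) p))).val = (idx (permOf (gm.getD i idTab) (prf p))).val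
    rw [idx_prf, idx_permOf hg, idx_permOf hv, idx_prf]
    exact (hpts _ (idx p).isLt).2
  · show mask (permOf (gu.getD i idTab) • s) ∈ codeMasks
    rw [mask_smul hg]
    exact mem_of_inC (hcode _ hs)

theorem good_of_mem {x : Equiv.Perm GolayPt × Equiv.Perm GolayPt} (hx : x ∈ cov2) : Good x := by
  have hx' : x ∈ Submonoid.closure {gens2 0, gens2 1} := by
    rw [← Subgroup.closure_toSubmonoid_of_finite]; exact hx
  induction hx' using Submonoid.closure_induction_left with
  | one => exact ⟨one_mem _, fun p => rfl, fun p => rfl, fun s hs => by simpa using hs⟩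
  | mul_left y hy z hz ih =>
    obtain ⟨a1, a2, a3, a4⟩ : Good y := by
      rcases hy with rfl | rfl
      · exact good_gen (by norm_num)
      · exact good_gen (by norm_num)
    obtain ⟨b1, b2, b3, b4⟩ := ih (Submonoid.closure_le.2 Subgroup.subset_closure hz)
    refine ⟨mul_mem a1 b1, fun p => ?_, fun p => ?_, fun s hs => ?_⟩
    · simp only [Prod.fst_mul, Equiv.Perm.mul_apply, a2, b2]
    · simp only [Prod.fst_mul, Prod.snd_mul, Equiv.Perm.mul_apply, a3, b3]
    · rw [Prod.fst_mul, mul_smul]
      exact a4 _ (b4 _ hs)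

/-- The block of a point. -/
def blockOf (i : ℕ) : ℕ := dPts.idxOf (prTab.getD i 0)

/-- The exchange of some of the pairs. -/
def flipTab (ε : ℕ) : List ℕ :=
  (List.range 24).map fun i => bif ε.testBit (blockOf i) then pairTab.getD i 0 else i

theorem flips_check :
    ((List.range 4096).all fun ε => validTab (flipTab ε) &&
      (Nat.beq ε 0 || Nat.beq ε 4095 || !(codeBasis.all fun m => inC (actTab (flipTab ε) m)))) = true := by
  decide +kernel

theorem flip_ends :
    (flipTab 0 == idTab && flipTab 4095 == pairTab) = true := by decide +kernel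

theorem same_block : ∀ p q : GolayPt, prf q = prf p → q = p ∨ q = tabFun pairTab p := by decide +kernel

theorem block_facts : ∀ p : GolayPt,
    blockOf (idx p).val < 12 ∧ ptN (dPts.getD (blockOf (idx p).val) 0) = prf p := by decide +kernel

theorem point_or_pair : ∀ p : GolayPt, prf p = p ∨ tabFun pairTab (prf p) = p := by decide +kernel

theorem zPerm_apply (p : GolayPt) : zPerm p = tabFun pairTab p := by
  refine idx_injective (Fin.ext ?_)
  rw [zPerm, idx_permOf pair_valid, idx_tabFun pair_valid]

theorem zPerm_sq (p : GolayPt) : zPerm (zPerm p) = p := by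
  rw [zPerm_apply, zPerm_apply]; revert p; decide +kernel

theorem zPerm_ne (p : GolayPt) : zPerm p ≠ p := by
  rw [zPerm_apply]; revert p; decide +kernel

theorem fix_of_snd_eq_one {x : Equiv.Perm GolayPt × Equiv.Perm GolayPt} (hx : x ∈ cov2) (h2 : x.2 = 1) :
    x.1 = 1 ∨ x.1 = zPerm := by
  classical
  obtain ⟨-, hz, hpr, hcode⟩ := good_of_mem hx
  rw [h2] at hpr
  have hud : ∀ p, x.1 p = p ∨ x.1 p = zPerm p := fun p => by
    rw [zPerm_apply]; exact same_block p _ (hpr p)
  set ε := Nat.ofBits fun k : Fin 12 => decide (x.1 (ptN (dPts.getD k.val 0)) ≠ ptN (dPts.getD k.val 0))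
  have hε : ε < 4096 := Nat.ofBits_lt_two_pow _
  have hchk := List.all_eq_true.1 flips_check ε (List.mem_range.2 hε)
  simp only [Bool.and_eq_true] at hchk
  obtain ⟨hv, hchk⟩ := hchk
  have hflip : x.1 = permOf (flipTab ε) := by
    refine Equiv.ext fun p => idx_injective (Fin.ext ?_)
    rw [idx_permOf hv, flipTab, List.getD_eq_getElem _ _ (by simp), List.getElem_map, List.getElem_range]
    obtain ⟨hb, hd⟩ := block_facts p
    have hbit : ε.testBit (blockOf (idx p).val) = decide (x.1 (prf p) ≠ prf p) := by
      rw [Nat.testBit_ofBits_lt _ _ hb]; simp only [hd]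
    have key : x.1 (prf p) ≠ prf p ↔ x.1 p ≠ p := by
      rcases point_or_pair p with e | e
      · rw [e]
      · rw [← zPerm_apply] at e
        conv_rhs => rw [← e, ← hz]
        exact (zPerm.injective.ne_iff).symm
    rw [hbit]
    by_cases hne : x.1 p = p
    · rw [decide_eq_false (fun h => (key.1 h) hne), cond_false, hne]
    · rw [decide_eq_true (key.2 hne), cond_true, (hud p).resolve_left hne, zPerm_apply, idx_tabFun pair_valid]
  have hall : (codeBasis.all fun m => inC (actTab (flipTab ε) m)) = true := by
    refine List.all_eq_true.2 fun m hm => ?_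
    have hm' := List.all_eq_true.1 codeBasis_mem m hm
    simp only [Bool.and_eq_true, Nat.blt_eq] at hm'
    have h := hcode (toSet m) (by rw [mask_toSet hm'.2]; exact mem_of_inC hm'.1)
    rw [hflip, mask_smul hv, mask_toSet hm'.2] at h
    exact List.all_eq_true.1 inC_of_mem _ h
  rw [hall] at hchk
  simp only [Bool.not_true, Bool.or_false, Bool.or_eq_true, Nat.beq_eq] at hchk
  have he := flip_ends
  simp only [Bool.and_eq_true, beq_iff_eq] at he
  rcases hchk with h0 | h0
  · left; rw [hflip, h0, he.1, permOf_idTab]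
  · right; rw [hflip, h0, he.2]; rfl

/-- A word gives a pair. -/
noncomputable def pairW (w : List ℕ) : Equiv.Perm GolayPt × Equiv.Perm GolayPt :=
  (permOf (wordT gu w), permOf (wordT gm w))

theorem tabs_valid : ∀ i, i < 2 → validTab (gu.getD i idTab) = true ∧ validTab (gm.getD i idTab) = true := by
  decide +kernel

theorem pairW_spec (w : List ℕ) :
    validTab (wordT gu w) = true ∧ validTab (wordT gm w) = true ∧ pairW w ∈ cov2 := by
  induction w with
  | nil =>
    have hv := (CfsgLib.M23Coh.okTab_spec CfsgLib.M23Coh.idTab_ok).1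
    refine ⟨hv, hv, ?_⟩
    show (permOf idTab, permOf idTab) ∈ cov2
    rw [permOf_idTab]
    exact one_mem cov2
  | cons a r ih =>
    obtain ⟨h1, h2, h3⟩ := ih
    have hva : validTab (gu.getD a idTab) = true ∧ validTab (gm.getD a idTab) = true := by
      by_cases ha : a < 2
      · exact tabs_valid a ha
      · rw [List.getD_eq_default _ _ (by show 2 ≤ a; omega), List.getD_eq_default _ _ (by show 2 ≤ a; omega)]
        exact ⟨(CfsgLib.M23Coh.okTab_spec CfsgLib.M23Coh.idTab_ok).1, (CfsgLib.M23Coh.okTab_spec CfsgLib.M23Coh.idTab_ok).1⟩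
    obtain ⟨e1, e2⟩ := mulTab_spec hva.1 h1
    obtain ⟨f1, f2⟩ := mulTab_spec hva.2 h2
    refine ⟨e1, f1, ?_⟩
    have : pairW (a :: r) = gens2 a * pairW r := Prod.ext e2 f2
    rw [this]
    refine mul_mem ?_ h3
    by_cases ha : a < 2
    · refine Subgroup.subset_closure ?_
      interval_cases a <;> simp
    · rw [gens2, List.getD_eq_default _ _ (by show 2 ≤ a; omega), List.getD_eq_default _ _ (by show 2 ≤ a; omega),
        permOf_idTab]
      exact one_mem _

/-- The cover, as signed permutations. -/
noncomputable def cov : Subgroup (Equiv.Perm GolayPt) :=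
  cov2.map (MonoidHom.fst (Equiv.Perm GolayPt) (Equiv.Perm GolayPt))

/-- Projection of the pairs to the signed permutations. -/
noncomputable def toCov : ↥cov2 →* ↥cov :=
  (MonoidHom.fst (Equiv.Perm GolayPt) (Equiv.Perm GolayPt)).subgroupMap cov2

theorem toCov_bijective : Function.Bijective toCov := by
  refine ⟨(injective_iff_map_eq_one _).2 fun x hx => ?_, MonoidHom.subgroupMap_surjective _ cov2⟩
  have h1 : x.1.1 = 1 := congrArg Subtype.val hx
  obtain ⟨hm, -, hpr, -⟩ := good_of_mem x.2
  rw [h1] at hpr
  have hM := Subgroup.mem_inf.1 hm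
  have hD : Spor.squareDodecad = DodStab.D := DodStab.squareDodecad_eq
  have h2 : x.1.2 = 1 := Simple.eq_one_of_fix_D hM.1 (hD ▸ MulAction.mem_stabilizer_iff.1 hM.2) fun p hp => by
    have e : prf p = p := (by decide +kernel : ∀ p ∈ DodStab.D, prf p = p) p hp
    have := hpr p
    rw [Equiv.Perm.one_apply, e] at this
    exact this.symm
  exact Subtype.ext (Prod.ext h1 h2)

/-- The identification with pairs. -/
noncomputable def covEquiv : ↥cov2 ≃* ↥cov := MulEquiv.ofBijective toCov toCov_bijective

/-- The second component. -/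
noncomputable def snd2 : ↥cov2 →* ↥Spor.M12 :=
  ((MonoidHom.snd (Equiv.Perm GolayPt) (Equiv.Perm GolayPt)).comp cov2.subtype).codRestrict Spor.M12
    fun x => (good_of_mem x.2).1

/-- The covering map. -/
noncomputable def sigma : ↥cov →* ↥Spor.M12 := snd2.comp covEquiv.symm.toMonoidHom

theorem sigma_covEquiv (x : ↥cov2) : sigma (covEquiv x) = snd2 x := by
  simp [sigma]

theorem trans_ok :
    (Nat.beq transW.length 5 && (List.range 5).all fun k =>
      Nat.beq (transW.getD k []).length (12 - k) &&
      (((transW.getD k []).map fun w => (wordT gm w).getD (dPts.getD k 0) 0).dedup.length == 12 - k) &&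
      (transW.getD k []).all fun w => (List.range k).all fun j =>
        Nat.beq ((wordT gm w).getD (dPts.getD j 0) 0) (dPts.getD j 0)) = true := by
  decide +kernel

/-- Elements of the image fixing the first points of the dodecad. -/
noncomputable def level (k : ℕ) : Subgroup (Equiv.Perm GolayPt) :=
  cov2.map (MonoidHom.snd (Equiv.Perm GolayPt) (Equiv.Perm GolayPt)) ⊓
    ⨅ j : Fin k, MulAction.stabilizer (Equiv.Perm GolayPt) (ptN (dPts.getD j.val 0))

theorem mem_level {k : ℕ} {g : Equiv.Perm GolayPt} :
    g ∈ level k ↔ g ∈ cov2.map (MonoidHom.snd (Equiv.Perm GolayPt) (Equiv.Perm GolayPt)) ∧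
      ∀ j : Fin k, g (ptN (dPts.getD j.val 0)) = ptN (dPts.getD j.val 0) := by
  simp [level, Subgroup.mem_iInf]

theorem level_step {k : ℕ} (hk : k < 5) : (12 - k) * Nat.card (level (k + 1)) ≤ Nat.card (level k) := by
  have h := trans_ok
  simp only [Bool.and_eq_true, Nat.beq_eq, List.all_eq_true, List.mem_range, beq_iff_eq] at h
  obtain ⟨⟨hlen, hded⟩, hfix⟩ := h.2 k hk
  set L := transW.getD k []
  set f : List ℕ → ℕ := fun w => (wordT gm w).getD (dPts.getD k 0) 0
  have hnd : (L.map f).Nodup := by
    rw [← List.dedup_eq_self]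
    exact (List.dedup_sublist _).eq_of_length (by rw [hded, List.length_map, hlen])
  have hdk : ∀ j, j ≤ k → dPts.getD j 0 < 24 := fun j hj =>
    (by decide : ∀ j < 5, dPts.getD j 0 < 24) j (by omega)
  have hidx : ∀ w : List ℕ, ∀ j ≤ k,
      (idx (permOf (wordT gm w) (ptN (dPts.getD j 0)))).val = (wordT gm w).getD (dPts.getD j 0) 0 := by
    intro w j hj
    rw [idx_permOf (pairW_spec w).2.1, idx_ptN (hdk j hj)]
  have hmem : ∀ w ∈ L, permOf (wordT gm w) ∈ level k := by
    intro w hw
    refine mem_level.2 ⟨⟨pairW w, (pairW_spec w).2.2, rfl⟩, fun j => idx_injective (Fin.ext ?_)⟩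
    rw [hidx w j.val (by omega), idx_ptN (hdk j.val (by omega))]
    exact hfix w hw j.val j.isLt
  let Φ : Fin L.length × ↥(level (k + 1)) → ↥(level k) := fun q =>
    ⟨permOf (wordT gm (L[q.1.val])) * q.2.1, mul_mem (hmem _ (List.getElem_mem _))
      (mem_level.2 ⟨(mem_level.1 q.2.2).1, fun j => (mem_level.1 q.2.2).2 j.castSucc⟩)⟩
  have hinj : Function.Injective Φ := by
    rintro ⟨a, g⟩ ⟨b, g'⟩ hab
    have hv : permOf (wordT gm L[a.val]) * g.1 = permOf (wordT gm L[b.val]) * g'.1 := congrArg Subtype.val hab
    have hg := (mem_level.1 g.2).2 (Fin.last k)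
    have hg' := (mem_level.1 g'.2).2 (Fin.last k)
    simp only [Fin.val_last] at hg hg'
    have hp := congrArg (fun t : Equiv.Perm GolayPt => (idx (t (ptN (dPts.getD k 0)))).val) hv
    simp only [Equiv.Perm.mul_apply, hg, hg'] at hp
    rw [hidx _ k le_rfl, hidx _ k le_rfl] at hp
    have hab' : a = b := by
      have ha : a.val < (L.map f).length := by simp
      have hb : b.val < (L.map f).length := by simp
      exact Fin.ext ((hnd.getElem_inj_iff (hi := ha) (hj := hb)).1 (by simpa [f] using hp))
    subst hab'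
    exact Prod.ext rfl (Subtype.ext (mul_left_cancel hv))
  have := Nat.card_le_card_of_injective Φ hinj
  rwa [Nat.card_prod, Nat.card_eq_fintype_card, Fintype.card_fin, hlen] at this

theorem snd_map_eq : cov2.map (MonoidHom.snd (Equiv.Perm GolayPt) (Equiv.Perm GolayPt)) = Spor.M12 := by
  refine Subgroup.eq_of_le_of_card_ge ?_ ?_
  · rintro _ ⟨x, hx, rfl⟩
    exact (good_of_mem hx).1
  · rw [MathieuOut.card_M12]
    have h0 : level 0 ≤ cov2.map (MonoidHom.snd (Equiv.Perm GolayPt) (Equiv.Perm GolayPt)) := inf_le_left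
    refine le_trans ?_ (Subgroup.card_le_of_le h0)
    have h5 : 1 ≤ Nat.card (level 5) := Nat.card_pos
    have s0 := level_step (k := 0) (by norm_num)
    have s1 := level_step (k := 1) (by norm_num)
    have s2 := level_step (k := 2) (by norm_num)
    have s3 := level_step (k := 3) (by norm_num)
    have s4 := level_step (k := 4) (by norm_num)
    norm_num at s0 s1 s2 s3 s4
    omega

theorem sigma_surjective : Function.Surjective sigma := by
  intro m
  have hm : (m : Equiv.Perm GolayPt) ∈ cov2.map (MonoidHom.snd (Equiv.Perm GolayPt) (Equiv.Perm GolayPt)) :=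
    by rw [snd_map_eq]; exact m.2
  obtain ⟨x, hx, h⟩ := hm
  exact ⟨covEquiv ⟨x, hx⟩, by rw [sigma_covEquiv]; exact Subtype.ext h⟩

theorem z_pair : pairW zWord = (zPerm, 1) := by
  refine Prod.ext ?_ ?_
  · show permOf (wordT gu zWord) = permOf pairTab
    rw [show wordT gu zWord = pairTab from by decide +kernel]
  · show permOf (wordT gm zWord) = 1
    rw [show wordT gm zWord = idTab from by decide +kernel, permOf_idTab]

/-- The central involution. -/
noncomputable def zElt : ↥cov2 := ⟨(zPerm, 1), z_pair ▸ (pairW_spec zWord).2.2⟩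

theorem ker_snd2 (x : ↥cov2) : snd2 x = 1 ↔ x = 1 ∨ x = zElt := by
  constructor
  · intro h
    have h2 : x.1.2 = 1 := congrArg Subtype.val h
    rcases fix_of_snd_eq_one x.2 h2 with h1 | h1
    · exact Or.inl (Subtype.ext (Prod.ext h1 h2))
    · exact Or.inr (Subtype.ext (Prod.ext h1 h2))
  · rintro (rfl | rfl)
    · exact map_one _
    · rfl

theorem zElt_ne : zElt ≠ 1 := fun h => by
  have h1 : zPerm = 1 := congrArg (fun t : ↥cov2 => t.1.1) h
  exact zPerm_ne none (by rw [h1]; rfl)

theorem zElt_central (x : ↥cov2) : x * zElt = zElt * x := by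
  refine Subtype.ext (Prod.ext (Equiv.ext fun p => ?_) ?_)
  · exact ((good_of_mem x.2).2.1 p).symm
  · show x.1.2 * 1 = 1 * x.1.2
    rw [mul_one, one_mul]

theorem com_check :
    (wordT gu (comA ++ comB) == wordT gu (zWord ++ (comB ++ comA)) &&
      wordT gm (comA ++ comB) == wordT gm (zWord ++ (comB ++ comA))) = true := by
  decide +kernel

theorem pairW_append (u v : List ℕ) : pairW (u ++ v) = pairW u * pairW v := by
  induction u with
  | nil =>
    rw [List.nil_append, show pairW [] = 1 from by
      show (permOf idTab, permOf idTab) = 1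
      rw [permOf_idTab]; rfl, one_mul]
  | cons a r ih =>
    have h : ∀ w, pairW (a :: w) = (permOf (gu.getD a idTab), permOf (gm.getD a idTab)) * pairW w := by
      intro w
      have hva : validTab (gu.getD a idTab) = true ∧ validTab (gm.getD a idTab) = true := by
        by_cases ha : a < 2
        · exact tabs_valid a ha
        · rw [List.getD_eq_default _ _ (by show 2 ≤ a; omega), List.getD_eq_default _ _ (by show 2 ≤ a; omega)]
          exact ⟨(CfsgLib.M23Coh.okTab_spec CfsgLib.M23Coh.idTab_ok).1, (CfsgLib.M23Coh.okTab_spec CfsgLib.M23Coh.idTab_ok).1⟩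
      exact Prod.ext (mulTab_spec hva.1 (pairW_spec w).1).2 (mulTab_spec hva.2 (pairW_spec w).2.1).2
    rw [List.cons_append, h, h, ih, mul_assoc]

theorem zElt_mem_commutator : zElt ∈ commutator ↥cov2 := by
  let a : ↥cov2 := ⟨pairW comA, (pairW_spec comA).2.2⟩
  let b : ↥cov2 := ⟨pairW comB, (pairW_spec comB).2.2⟩
  have h := com_check
  simp only [Bool.and_eq_true, beq_iff_eq] at h
  have hab : a * b = zElt * (b * a) := by
    refine Subtype.ext ?_
    show pairW comA * pairW comB = (zPerm, 1) * (pairW comB * pairW comA)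
    rw [← z_pair, ← pairW_append, ← pairW_append, ← pairW_append]
    exact Prod.ext (congrArg permOf h.1) (congrArg permOf h.2)
  have : zElt = ⁅a, b⁆ := by rw [commutatorElement_def, hab]; group
  rw [this, commutator_def]
  exact Subgroup.commutator_mem_commutator (Subgroup.mem_top _) (Subgroup.mem_top _)

theorem sigma_ker : sigma.ker = Subgroup.zpowers (covEquiv zElt) := by
  ext y
  obtain ⟨x, rfl⟩ := covEquiv.surjective y
  rw [MonoidHom.mem_ker, sigma_covEquiv, ker_snd2]
  constructor
  · rintro (rfl | rfl)
    · rw [map_one]; exact one_mem _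
    · exact Subgroup.mem_zpowers _
  · intro h
    have h2 : sigma (covEquiv x) = 1 := by
      have hle : Subgroup.zpowers (covEquiv zElt) ≤ sigma.ker := by
        rw [Subgroup.zpowers_le, MonoidHom.mem_ker, sigma_covEquiv]; exact (ker_snd2 _).2 (Or.inr rfl)
      exact hle h
    rw [sigma_covEquiv, ker_snd2] at h2
    exact h2

theorem sigma_stem : Cfsg.IsStemExtension sigma := by
  refine ⟨sigma_surjective, ?_, ?_⟩
  · rw [sigma_ker, Subgroup.zpowers_le, Subgroup.mem_center_iff]
    intro y
    obtain ⟨x, rfl⟩ := covEquiv.surjective y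
    rw [← map_mul, ← map_mul, zElt_central]
  · rw [sigma_ker, Subgroup.zpowers_le]
    have : (commutator ↥cov2).map covEquiv.toMonoidHom ≤ commutator ↥cov := by
      rw [commutator_def, commutator_def, Subgroup.map_commutator]
      exact Subgroup.commutator_mono le_top le_top
    exact this ⟨zElt, zElt_mem_commutator, rfl⟩

theorem card_ker : Nat.card sigma.ker = 2 := by
  rw [sigma_ker, Nat.card_zpowers]
  refine orderOf_eq_prime ?_ fun h => zElt_ne (covEquiv.injective (h.trans (map_one _).symm))
  rw [← map_pow, show zElt ^ 2 = 1 from Subtype.ext (Prod.ext (Equiv.ext fun p => by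
    show zPerm (zPerm p) = p
    exact zPerm_sq p) (by show (1 : Equiv.Perm GolayPt) ^ 2 = 1; exact one_pow _)), map_one]

theorem card_cov : Nat.card ↥cov = 190080 := by
  rw [Subgroup.card_eq_card_quotient_mul_card_subgroup sigma.ker,
    Nat.card_congr (QuotientGroup.quotientKerEquivOfSurjective sigma sigma_surjective).toEquiv, card_ker,
    MathieuOut.card_M12]

theorem els_ok : els.all (fun q => wordT gu q.2 == q.1) = true := by decide +kernel

/-- Test for the cover: the listed elements. -/
def okCov (g : List ℕ) : Bool := els.any fun q => q.1 == g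

theorem soundCov : Sound cov okCov := by
  intro g hg
  obtain ⟨q, hq, h⟩ := List.any_eq_true.1 hg
  rw [beq_iff_eq] at h
  have h' := List.all_eq_true.1 els_ok q hq
  rw [beq_iff_eq] at h'
  subst h
  rw [← h']
  exact ⟨(pairW_spec q.2).1, ⟨pairW q.2, (pairW_spec q.2).2.2, rfl⟩⟩

theorem pres2 : G12p2.cert.checkPres okCov = true := by decide +kernel

theorem eqs2 : G12p2.cert.checkEqs = true := by decide +kernel

theorem sol2 : G12p2.cert.checkSol = true := by decide +kernel

theorem shape2 : G12p2.cert.checkShape = true := by decide +kernel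

theorem nf2 : G12p2.cert.checkNF = true := by decide +kernel

theorem pres3 : G12p3.cert.checkPres okCov = true := by decide +kernel

theorem eqs3 : G12p3.cert.checkEqs = true := by decide +kernel

theorem sol3 : G12p3.cert.checkSol = true := by decide +kernel

theorem shape3 : G12p3.cert.checkShape = true := by decide +kernel

theorem nf3 : G12p3.cert.checkNF = true := by decide +kernel

/-- Every finite stem extension of the cover is injective. -/
theorem cov_stem_trivial {Γ : Type} [Group Γ] [Finite Γ] (τ : Γ →* ↥cov) (hτ : Cfsg.IsStemExtension τ) :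
    τ.ker = ⊥ := by
  refine ker_eq_bot_of_no_cover hτ fun Δ _ _ ρ e p hp hcov hst => ?_
  haveI := Fact.mk hp
  by_cases hp2 : p = 2
  · subst hp2
    exact no_cover soundCov (c := G12p2.cert) Nat.prime_two pres2 eqs2 sol2 shape2 nf2
      (by rw [card_cov]; decide +kernel) hcov hst
  by_cases hp3 : p = 3
  · subst hp3
    exact no_cover soundCov (c := G12p3.cert) Nat.prime_three pres3 eqs3 sol3 shape3 nf3
      (by rw [card_cov]; decide +kernel) hcov hst
  refine no_cover_of_cyclic (fun hd => ?_) hcov hst
  rw [card_cov] at hd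
  have hc2 : (p ^ 2).Coprime 128 := by
    rw [show (128 : ℕ) = 2 ^ 7 by norm_num]
    exact Nat.Coprime.pow 2 _ ((Nat.coprime_primes hp Nat.prime_two).2 hp2)
  have hc3 : (p ^ 2).Coprime 27 := by
    rw [show (27 : ℕ) = 3 ^ 3 by norm_num]
    exact Nat.Coprime.pow 2 _ ((Nat.coprime_primes hp Nat.prime_three).2 hp3)
  rw [show (190080 : ℕ) = 128 * (27 * 55) by norm_num] at hd
  have h6 : p ^ 2 ∣ 55 := hc3.dvd_of_dvd_mul_left (hc2.dvd_of_dvd_mul_left hd)
  have hle : p ^ 2 ≤ 55 := Nat.le_of_dvd (by norm_num) h6
  have hlt : p < 8 := by nlinarith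
  interval_cases p <;> first | (norm_num at hp; done) | (norm_num at h6; done) | omega

end CfsgLib.SchurCert.Cover12
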